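import Cfsg.Agent.H18.Extraspecial

/-!
Double centralizers in extraspecial `2`-groups.
-/

set_option autoImplicit false

namespace Cfsg.Agent.H58

open scoped commutatorElement

variable {E : Type*} [Group E] [Finite E]

/-- In an extraspecial `2`-group, `|C(W)| * |W| ≤ 2 |E|`. -/
theorem card_centralizer_mul_card_le (hE : Cfsg.IsExtraspecial 2 E) (W : Subgroup E) :
    Nat.card ↥(Subgroup.centralizer (W : Set E)) * Nat.card ↥W ≤ 2 * Nat.card E := by
  induction hn : W.index using Nat.strong_induction_on generalizing W with
  | _ n ih =>
    by_cases hW : W = ⊤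
    · subst hW
      rw [Subgroup.coe_top, Subgroup.centralizer_univ, hE.2, Subgroup.card_top]
    · obtain ⟨x, hx⟩ : ∃ x, x ∉ W := by
        by_contra h
        push Not at h
        exact hW (eq_top_iff.mpr fun y _ => h y)
      set W' := W ⊔ Subgroup.zpowers x
      have hlt : W < W' := lt_of_le_of_ne le_sup_left fun h =>
        hx (h ▸ Subgroup.mem_sup_right (Subgroup.mem_zpowers x))
      have hcard : 2 * Nat.card ↥W ≤ Nat.card ↥W' := by
        obtain ⟨k, hk⟩ := Subgroup.card_dvd_of_le hlt.le
        rcases k with _ | _ | k
        · exact absurd hk (by simpa using (Nat.card_pos (α := ↥W')).ne')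
        · exact absurd (Subgroup.eq_of_le_of_card_ge hlt.le (by omega)) hlt.ne
        · rw [hk]; nlinarith
      have hlt' : W'.index < n := by
        have h1 := Subgroup.card_mul_index W
        have h2 := Subgroup.card_mul_index W'
        have h3 : 0 < Nat.card ↥W := Nat.card_pos
        have h4 : 0 < W'.index := Nat.pos_of_ne_zero Subgroup.index_ne_zero_of_finite
        subst hn
        by_contra hle
        have h5 := Nat.mul_le_mul (le_refl (Nat.card ↥W)) (not_lt.mp hle)
        have h6 := Nat.mul_lt_mul_of_pos_right (show Nat.card ↥W < Nat.card ↥W' by omega) h4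
        omega
      have hC' : Subgroup.centralizer (W : Set E) ⊓ Subgroup.centralizer ({x} : Set E) ≤
          Subgroup.centralizer (W' : Set E) := by
        intro c hc
        have hle : W' ≤ Subgroup.centralizer ({c} : Set E) :=
          sup_le (fun w hw => Subgroup.mem_centralizer_singleton_iff.mpr
              (Subgroup.mem_centralizer_iff.mp hc.1 w hw))
            (Subgroup.zpowers_le.mpr (Subgroup.mem_centralizer_singleton_iff.mpr
              (Subgroup.mem_centralizer_singleton_iff.mp hc.2).symm))
        exact Subgroup.mem_centralizer_iff.mpr fun w hw =>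
          Subgroup.mem_centralizer_singleton_iff.mp (hle hw)
      have hhalf : Nat.card ↥(Subgroup.centralizer (W : Set E)) ≤
          2 * Nat.card ↥(Subgroup.centralizer (W' : Set E)) := by
        have h1 := Subgroup.card_mul_index
          ((Subgroup.centralizer ({x} : Set E)).subgroupOf (Subgroup.centralizer (W : Set E)))
        have h2 : ((Subgroup.centralizer ({x} : Set E)).subgroupOf
            (Subgroup.centralizer (W : Set E))).index ≤ 2 :=
          le_trans (Nat.le_of_dvd (Nat.pos_of_ne_zero Subgroup.index_ne_zero_of_finite)
            (by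
              haveI : (Subgroup.centralizer ({x} : Set E)).Normal := by
                refine ⟨fun y hy g => Subgroup.mem_centralizer_singleton_iff.mpr ?_⟩
                have h := Subgroup.mem_center_iff.mp (H18.commutator_mem_center hE g y)
                rw [show g * y * g⁻¹ = ⁅g, y⁆ * y by rw [commutatorElement_def]; group]
                rw [mul_assoc, Subgroup.mem_centralizer_singleton_iff.mp hy, ← mul_assoc, ← h x,
                  mul_assoc]
              exact Subgroup.relIndex_dvd_index_of_normal _ _))
            (H18.index_centralizer_singleton_le hE x)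
        have h3 : Nat.card ↥((Subgroup.centralizer ({x} : Set E)).subgroupOf
            (Subgroup.centralizer (W : Set E))) ≤ Nat.card ↥(Subgroup.centralizer (W' : Set E)) := by
          refine Nat.card_le_card_of_injective
            (fun u => ⟨u.1.1, hC' ⟨u.1.2, u.2⟩⟩) fun u v h => ?_
          exact Subtype.ext (Subtype.ext (congrArg Subtype.val h :))
        calc _ = _ := h1.symm
          _ ≤ Nat.card ↥(Subgroup.centralizer (W' : Set E)) * 2 := Nat.mul_le_mul h3 h2
          _ = _ := mul_comm _ _
      calc _ ≤ 2 * Nat.card ↥(Subgroup.centralizer (W' : Set E)) * Nat.card ↥W :=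
            Nat.mul_le_mul_right _ hhalf
        _ = Nat.card ↥(Subgroup.centralizer (W' : Set E)) * (2 * Nat.card ↥W) := by ring
        _ ≤ Nat.card ↥(Subgroup.centralizer (W' : Set E)) * Nat.card ↥W' :=
            Nat.mul_le_mul_left _ hcard
        _ ≤ 2 * Nat.card E := ih _ hlt' W' rfl

/-- A subgroup of an extraspecial `2`-group containing the centre is its own double centralizer. -/
theorem centralizer_centralizer_eq (hE : Cfsg.IsExtraspecial 2 E) (H : Subgroup E)
    (hH : Subgroup.center E ≤ H) :
    Subgroup.centralizer ((Subgroup.centralizer (H : Set E) : Subgroup E) : Set E) = H := by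
  set W := Subgroup.centralizer (H : Set E) with hW
  refine (Subgroup.eq_of_le_of_card_ge ?_ ?_).symm
  · intro h hh
    exact Subgroup.mem_centralizer_iff.mpr fun w hw => (Subgroup.mem_centralizer_iff.mp hw h hh).symm
  · have h1 := card_centralizer_mul_card_le hE W
    have h2 := H18.index_centralizer_mul_le hE H hH
    have h3 := Subgroup.card_mul_index W
    have h4 : 0 < Nat.card ↥W := Nat.card_pos
    refine Nat.le_of_mul_le_mul_right (h1.trans ?_) h4
    calc 2 * Nat.card E = 2 * (Nat.card ↥W * W.index) := by rw [h3]
      _ = (W.index * 2) * Nat.card ↥W := by ring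
      _ ≤ Nat.card ↥H * Nat.card ↥W := Nat.mul_le_mul_right _ h2

end Cfsg.Agent.H58
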