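import Mathlib

/-!
Automorphisms of two-power order of abelian `2`-groups.
-/

set_option autoImplicit false

namespace Cfsg.Agent.H58

/-- An automorphism of `2`-power order of an abelian `2`-group with the same fixed points as its
square is trivial. -/
theorem two_aut_eq_one_of_fixed_sq {A : Type*} [CommGroup A] [Finite A] (hA : IsPGroup 2 A)
    (t : MulAut A) (ht : ∃ k : ℕ, orderOf t = 2 ^ k) (hC : ∀ a : A, t (t a) = a → t a = a) :
    ∀ a : A, t a = a := by
  intro a
  let f : A →* A := MonoidHom.mk' (fun x => t x / x) fun x y => by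
    show t (x * y) / (x * y) = t x / x * (t y / y)
    rw [map_mul, div_mul_div_comm]
  set R : Subgroup A := f.range with hR
  by_contra ha
  -- an element of order two of the range fixed by `t`
  have hRne : R ≠ ⊥ := fun h => ha <| by
    have : f a ∈ R := ⟨a, rfl⟩
    rw [h, Subgroup.mem_bot] at this
    exact div_eq_one.mp this
  let Ω : Set A := {x | x ∈ R ∧ x ^ 2 = 1}
  have hmaps : ∀ x ∈ R, t x ∈ R := by
    rintro _ ⟨x, rfl⟩
    exact ⟨t x, (map_div t (t x) x).symm⟩
  let Z : Subgroup (MulAut A) := Subgroup.zpowers t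
  have hZ : IsPGroup 2 ↥Z := by
    obtain ⟨k, hk⟩ := ht
    exact IsPGroup.of_card (n := k) (by rw [Nat.card_zpowers, hk])
  let O : Subgroup A := R ⊓ (powMonoidHom 2).ker
  have hO : ∀ g ∈ Z, ∀ x ∈ O, g x ∈ O := by
    have h1 : ∀ x ∈ O, t x ∈ O := fun x hx => ⟨hmaps x hx.1, by
      have h2 : x ^ 2 = 1 := hx.2
      show t x ^ 2 = 1
      rw [← map_pow, h2, map_one]⟩
    intro g hg x hx
    have hfin : g ∈ Submonoid.powers t := mem_powers_iff_mem_zpowers.mpr hg
    obtain ⟨n, rfl⟩ := hfin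
    clear hg
    show (t ^ n) x ∈ O
    induction n with
    | zero => simpa using hx
    | succ n ih =>
      rw [pow_succ']
      exact h1 _ ih
  letI act : MulAction ↥Z ↥O :=
    { smul := fun g x => ⟨g.1 x.1, hO g.1 g.2 x.1 x.2⟩
      one_smul := fun _ => rfl
      mul_smul := fun _ _ _ => rfl }
  have hOne : O ≠ ⊥ := by
    obtain ⟨x, hx, hx1⟩ : ∃ x ∈ R, x ≠ 1 := by
      by_contra h
      push Not at h
      exact hRne (eq_bot_iff.mpr fun x hx => by simpa using h x hx)
    obtain ⟨m, hm⟩ := IsPGroup.iff_orderOf.mp hA x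
    obtain ⟨m, rfl⟩ : ∃ j, m = j + 1 :=
      ⟨m - 1, by
        have : m ≠ 0 := by rintro rfl; exact hx1 (orderOf_eq_one_iff.mp (by simpa using hm))
        omega⟩
    intro h
    have h2 : x ^ 2 ^ m ∈ O := ⟨R.pow_mem hx _, by
      show (x ^ 2 ^ m) ^ 2 = 1
      rw [← pow_mul, ← pow_succ, ← hm]
      exact pow_orderOf_eq_one x⟩
    rw [h, Subgroup.mem_bot] at h2
    have := orderOf_dvd_of_pow_eq_one h2
    rw [hm, Nat.pow_dvd_pow_iff_le_right (by norm_num)] at this
    omega
  have hdvd : 2 ∣ Nat.card ↥O := by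
    obtain ⟨m, hm⟩ := (hA.to_subgroup O).exists_card_eq
    cases m with
    | zero => exact absurd (Subgroup.card_eq_one.mp (by simpa using hm)) hOne
    | succ m => rw [hm, pow_succ]; exact dvd_mul_left _ _
  haveI : Fact (Nat.Prime 2) := ⟨Nat.prime_two⟩
  obtain ⟨y, hy, hy1⟩ := hZ.exists_fixed_point_of_prime_dvd_card_of_fixed_point ↥O hdvd
    (a := (1 : ↥O)) fun g => Subtype.ext (map_one g.1)
  have hty : t y.1 = y.1 := congrArg Subtype.val (hy ⟨t, Subgroup.mem_zpowers t⟩)
  obtain ⟨b, hb⟩ := y.2.1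
  have hy2 : y.1 ^ 2 = 1 := y.2.2
  have hb' : t b = y.1 * b := by
    rw [← hb]
    exact (div_mul_cancel (t b) b).symm
  have hb2 : t b = b := hC b <| by
    rw [hb', map_mul, hty, hb', ← mul_assoc, ← pow_two, hy2, one_mul]
  refine hy1 (Subtype.ext ?_)
  show (1 : A) = y.1
  rw [← hb]
  exact (div_eq_one.mpr hb2).symm

end Cfsg.Agent.H58
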