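import Cfsg.Agent.H98.OrthUnitary
import Cfsg.Agent.H98.QuadFun
import Cfsg.Agent.H98.SingPair
import Cfsg.Agent.H97.ExtFieldQuad
import Cfsg.Agent.H5.OmegaGL
import Cfsg.Prelude.Def_GeometricClasses

/-!
# Field extension subgroups of unitary type from dimension ten

The arguments of S5700 and S5697 with the smaller dimension bounds.
-/

set_option autoImplicit false
set_option linter.style.haveILetI false
set_option linter.unusedSectionVars false
open Cfsg

namespace Cfsg.Agent.H58.GeoOrth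

/-- The normaliser in `Ω` of a quadratic field acting by similarities is maximal. -/
theorem isMaximalIn_unitary {F : Type*} [Field F] [Fintype F] {n : ℕ} (hn : 10 ≤ n) (Q : (Fin n → F) → F)
    (hQ : Cfsg.Geo.IsNondegenerateQuadraticForm Q) (K : Subalgebra F (Matrix (Fin n) (Fin n) F))
    (hK : Cfsg.Geo.IsFieldSubalgebra 2 K)
    (hsc : ∀ k ∈ K, ∃ c : F, ∀ v : (Fin n → F), Q (Matrix.mulVec k v) = c * Q v) :
    Cfsg.Geo.IsMaximalIn (Cfsg.Geo.omegaGL Q) (Cfsg.Geo.subalgebraNormalizer K ⊓ Cfsg.Geo.omegaGL Q) := by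
  classical
  set q := Cfsg.Agent.H98.qOfFun Q hQ with hq
  have hqQ : ⇑q = Q := Cfsg.Agent.H98.coe_qOfFun hQ
  haveI : Finite (Fin n → F) := Pi.finite
  obtain ⟨k, hk, hkn, -, hgen⟩ := Cfsg.Agent.H97.exists_generator_quad (by omega) hK
  set J : (Fin n → F) →ₗ[F] (Fin n → F) := Matrix.mulVecLin k with hJ
  obtain ⟨c, hc⟩ := hsc k hk
  obtain ⟨c₁, hc₁⟩ := hsc (1 + k) (K.add_mem K.one_mem hk)
  have H : Cfsg.Agent.H98.OU.US q J c (c₁ - 1 - c) := by
    refine ⟨Cfsg.Agent.H98.qOfFun_nondeg hQ, by rw [Module.finrank_fintype_fun_eq_card, Fintype.card_fin]; exact (by omega),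
      fun v => hc v, fun v => ?_, fun a v hv => ?_⟩
    · have h := hc₁ v
      rw [Matrix.add_mulVec, Matrix.one_mulVec] at h
      change QuadraticMap.polar (⇑q) v (Matrix.mulVec k v) = _
      rw [hqQ, QuadraticMap.polar, h, hc v]
      ring
    · have hy : k - a • (1 : Matrix (Fin n) (Fin n) F) ≠ 0 := fun h => hkn a (sub_eq_zero.mp h)
      have hmem : k - a • (1 : Matrix (Fin n) (Fin n) F) ∈ K := K.sub_mem hk (K.smul_mem K.one_mem a)
      obtain ⟨y, hyK, hyy⟩ := hK.inv _ hmem hy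
      have h0 : Matrix.mulVec (k - a • (1 : Matrix (Fin n) (Fin n) F)) v = 0 := by
        rw [Matrix.sub_mulVec, Matrix.smul_mulVec, Matrix.one_mulVec, sub_eq_zero]
        exact hv
      have := congrArg (Matrix.mulVec y) h0
      rwa [Matrix.mulVec_mulVec, ← hK.comm _ hmem _ hyK, hyy, Matrix.one_mulVec, Matrix.mulVec_zero] at this
  have hiff : ∀ g : Cfsg.Agent.H5.orth q,
      Cfsg.Agent.H5.toGLHom q hqQ g ∈ Cfsg.Geo.subalgebraNormalizer K ↔ Cfsg.Agent.H98.OU.Norm J g := by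
    intro g
    set G := Cfsg.Agent.H5.toGLHom q hqQ g with hG
    constructor
    · intro h
      obtain ⟨a, b, hab⟩ := hgen _ ((h k).mp hk)
      refine ⟨a, b, fun v => ?_⟩
      rw [← Cfsg.Agent.H5.toGLHom_mulVec q hqQ, ← Cfsg.Agent.H5.toGLHom_mulVec q hqQ, ← hG]
      change Matrix.mulVec (G : Matrix (Fin n) (Fin n) F) (Matrix.mulVec k v) =
        a • Matrix.mulVec (G : Matrix (Fin n) (Fin n) F) v +
          b • Matrix.mulVec k (Matrix.mulVec (G : Matrix (Fin n) (Fin n) F) v)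
      have e : (G : Matrix (Fin n) (Fin n) F) * k = (a • 1 + b • k) * (G : Matrix (Fin n) (Fin n) F) := by
        rw [← hab, mul_assoc, Units.inv_mul, mul_one]
      rw [Matrix.mulVec_mulVec, e, ← Matrix.mulVec_mulVec, Matrix.add_mulVec, Matrix.smul_mulVec, Matrix.smul_mulVec,
        Matrix.one_mulVec]
    · rintro ⟨a, b, hab⟩
      have e : (G : Matrix (Fin n) (Fin n) F) * k = (a • 1 + b • k) * (G : Matrix (Fin n) (Fin n) F) := by
        refine Matrix.ext_of_mulVec_single fun i => ?_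
        have h := hab (Pi.single i 1)
        rw [← Cfsg.Agent.H5.toGLHom_mulVec q hqQ, ← Cfsg.Agent.H5.toGLHom_mulVec q hqQ, ← hG] at h
        rw [← Matrix.mulVec_mulVec, ← Matrix.mulVec_mulVec, Matrix.add_mulVec, Matrix.smul_mulVec, Matrix.smul_mulVec,
          Matrix.one_mulVec]
        exact h
      have e' : (G : Matrix (Fin n) (Fin n) F) * k * ((G⁻¹ : GL (Fin n) F) : Matrix (Fin n) (Fin n) F) =
          a • 1 + b • k := by rw [e, mul_assoc, Units.mul_inv, mul_one]
      have hb : b ≠ 0 := fun hb => hkn a (by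
        have := congrArg (fun X => ((G⁻¹ : GL (Fin n) F) : Matrix (Fin n) (Fin n) F) * X *
          (G : Matrix (Fin n) (Fin n) F)) e'
        simpa [hb, mul_assoc] using this)
      intro y
      constructor
      · intro hy
        obtain ⟨p, r, rfl⟩ := hgen y hy
        rw [mul_add, add_mul, Matrix.mul_smul, Matrix.mul_smul, Matrix.smul_mul, Matrix.smul_mul, mul_one, e',
          Units.mul_inv]
        exact K.add_mem (K.smul_mem K.one_mem p) (K.smul_mem (K.add_mem (K.smul_mem K.one_mem a) (K.smul_mem hk b)) r)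
      · intro hy
        obtain ⟨p, r, hpr⟩ := hgen _ hy
        have : y = (p - r / b * a) • 1 + (r / b) • k := by
          have h2 : (G : Matrix (Fin n) (Fin n) F) * y * ((G⁻¹ : GL (Fin n) F) : Matrix (Fin n) (Fin n) F) =
              (G : Matrix (Fin n) (Fin n) F) * ((p - r / b * a) • 1 + (r / b) • k) *
                ((G⁻¹ : GL (Fin n) F) : Matrix (Fin n) (Fin n) F) := by
            rw [hpr, mul_add, add_mul, Matrix.mul_smul, Matrix.mul_smul, Matrix.smul_mul, Matrix.smul_mul, mul_one,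
              e', Units.mul_inv]
            match_scalars <;> field_simp <;> ring
          have h3 := congrArg (fun X => ((G⁻¹ : GL (Fin n) F) : Matrix (Fin n) (Fin n) F) * X *
            (G : Matrix (Fin n) (Fin n) F)) h2
          simpa [mul_assoc] using h3
        rw [this]
        exact K.add_mem (K.smul_mem K.one_mem _) (K.smul_mem hk _)
  refine Cfsg.Agent.H5.isMaximalIn_omegaGL q hqQ _ ?_ ?_
  · obtain ⟨g, hg, hgn⟩ := H.exists_not_norm
    exact ⟨g, hg, fun h => hgn ((hiff g).mp h)⟩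
  · intro M hM g hgM hg hgS
    exact H.commutator_le (fun x hx hxn => hM x hx ((hiff x).mpr hxn)) hgM fun h => hgS ((hiff g).mpr h)

/-- The stabiliser in `Ω` of two complementary totally singular subspaces of even dimension is maximal. -/
theorem isMaximalIn_singular_pair {F : Type*} [Field F] [Fintype F] {n k : ℕ} (Q : (Fin n → F) → F)
    (hQ : Cfsg.Geo.IsNondegenerateQuadraticForm Q) (hk5 : 5 ≤ k) (hk : 2 * k = n) (hke : Even k)
    (D : Fin 2 → Submodule F (Fin n → F)) (hD : Cfsg.Geo.IsMDecomposition k D)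
    (hts : ∀ i, Cfsg.Geo.IsTotallySingularQuad Q (D i)) :
    Cfsg.Geo.IsMaximalIn (Cfsg.Geo.omegaGL Q) (Cfsg.Geo.decompositionStabilizer D ⊓ Cfsg.Geo.omegaGL Q) := by
  classical
  haveI : Finite (Fin n → F) := Pi.finite
  set q := Cfsg.Agent.H98.qOfFun Q hQ
  have hf : ⇑q = Q := Cfsg.Agent.H98.coe_qOfFun hQ
  have hcompl : IsCompl (D 0) (D 1) := ⟨hD.indep.pairwiseDisjoint (show (0 : Fin 2) ≠ 1 by decide),
    codisjoint_iff.mpr (by
      refine eq_top_iff.mpr (hD.iSup_eq_top ▸ iSup_le fun i => ?_)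
      fin_cases i
      · exact le_sup_left
      · exact le_sup_right)⟩
  have P : Cfsg.Agent.H98.SingPair.Pair q (D 0) (D 1) k :=
    ⟨Cfsg.Agent.H98.qOfFun_nondeg hQ, fun w hw => by rw [hf]; exact hts 0 w hw,
      fun w hw => by rw [hf]; exact hts 1 w hw, hcompl, hD.finrank_eq 0, hD.finrank_eq 1, by omega⟩
  have hiff : ∀ g : Cfsg.Agent.H5.orth q, Cfsg.Agent.H5.toGLHom q hf g ∈ Cfsg.Geo.decompositionStabilizer D ↔
      Cfsg.Agent.H98.SingPair.KeepsPair (D 0) (D 1) g := by
    intro g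
    have hmap : ∀ (i j : Fin 2), (D i).map (Matrix.toLin'
        ((Cfsg.Agent.H5.toGLHom q hf g : Matrix.GeneralLinearGroup (Fin n) F) : Matrix (Fin n) (Fin n) F)) = D j ↔
        ∀ z ∈ D i, (g : (Fin n → F) ≃ₗ[F] (Fin n → F)) z ∈ D j := by
      intro i j
      refine ⟨fun h z hz => ?_, fun h => ?_⟩
      · rw [← Cfsg.Agent.H5.toGLHom_mulVec q hf, ← Matrix.toLin'_apply, ← h]
        exact Submodule.mem_map_of_mem hz
      · refine Submodule.eq_of_le_of_finrank_le ?_ ?_
        · rintro _ ⟨z, hz, rfl⟩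
          rw [Matrix.toLin'_apply, Cfsg.Agent.H5.toGLHom_mulVec]
          exact h z hz
        · rw [← (Submodule.equivMapOfInjective _ (fun x y hxy => by
            rw [Matrix.toLin'_apply, Matrix.toLin'_apply] at hxy
            exact Cfsg.Agent.H98.gl_mulVec_injective _ hxy) (D i)).finrank_eq, hD.finrank_eq, hD.finrank_eq]
    constructor
    · rintro ⟨σ, hσ⟩
      have key : ∀ s : Equiv.Perm (Fin 2), (s 0 = 0 ∧ s 1 = 1) ∨ (s 0 = 1 ∧ s 1 = 0) := by decide
      rcases key σ with ⟨a, b⟩ | ⟨a, b⟩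
      · exact Or.inl ⟨(hmap 0 0).mp (by rw [hσ 0, a]), (hmap 1 1).mp (by rw [hσ 1, b])⟩
      · exact Or.inr ⟨(hmap 0 1).mp (by rw [hσ 0, a]), (hmap 1 0).mp (by rw [hσ 1, b])⟩
    · rintro (⟨a, b⟩ | ⟨a, b⟩)
      · refine ⟨1, fun i => ?_⟩
        fin_cases i
        · exact (hmap 0 0).mpr a
        · exact (hmap 1 1).mpr b
      · refine ⟨Equiv.swap 0 1, fun i => ?_⟩
        fin_cases i
        · exact (hmap 0 1).mpr a
        · exact (hmap 1 0).mpr b
  refine Cfsg.Agent.H5.isMaximalIn_omegaGL q hf _ ?_ fun M hM g hg _ hgS => ?_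
  · obtain ⟨g, hg, hgn⟩ := P.exists_not_keeps
    exact ⟨g, hg, fun h => hgn ((hiff g).mp h)⟩
  · exact P.commutator_le hke (fun x hx hk' => hM x hx ((hiff x).mpr hk')) hg (fun h => hgS ((hiff g).mpr h))

end Cfsg.Agent.H58.GeoOrth
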