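import Cfsg.Prelude.Def_Local

/-!
The layer is characteristic.
-/

set_option autoImplicit false

namespace Cfsg.Agent.H58

/-- Being quasisimple is invariant under isomorphism. -/
theorem isQuasisimple_congr {H H' : Type*} [Group H] [Group H'] (e : H ≃* H')
    (h : Cfsg.IsQuasisimple H) : Cfsg.IsQuasisimple H' := by
  haveI := h.1
  haveI := h.2
  refine ⟨Group.IsPerfect.ofSurjective (f := e.toMonoidHom) e.surjective, ?_⟩
  have hZ : (Subgroup.center H).map e.toMonoidHom = Subgroup.center H' := by
    ext x
    simp only [Subgroup.mem_map, Subgroup.mem_center_iff]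
    constructor
    · rintro ⟨a, ha, rfl⟩ y
      obtain ⟨b, rfl⟩ := e.surjective y
      show e b * e a = e a * e b
      rw [← map_mul, ← map_mul, ha b]
    · intro hx
      refine ⟨e.symm x, fun b => ?_, e.apply_symm_apply x⟩
      apply e.injective
      rw [map_mul, map_mul, e.apply_symm_apply]
      exact hx (e b)
  exact MulEquiv.isSimpleGroup
    (QuotientGroup.congr (Subgroup.center H) (Subgroup.center H') e hZ).symm

/-- An automorphism carries components to components. -/
theorem isComponent_map {H H' : Type*} [Group H] [Group H'] (e : H ≃* H') {K : Subgroup H}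
    (h : Cfsg.IsComponent K) : Cfsg.IsComponent (K.map e.toMonoidHom) :=
  ⟨h.1.map e.surjective,
    isQuasisimple_congr (K.equivMapOfInjective e.toMonoidHom e.injective) h.2⟩

/-- The layer is a characteristic subgroup. -/
theorem layer_characteristic (H : Type*) [Group H] : (Cfsg.layer H).Characteristic := by
  refine Subgroup.characteristic_iff_map_le.mpr fun φ => ?_
  rw [Cfsg.layer, sSup_eq_iSup, Subgroup.map_iSup]
  refine iSup_le fun K => ?_
  rw [Subgroup.map_iSup]
  refine iSup_le fun hK => ?_
  exact le_iSup_of_le (K.map φ.toMonoidHom) (le_iSup_of_le (isComponent_map φ hK) le_rfl)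

end Cfsg.Agent.H58
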