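import Mathlib

/-!
A 2-group of symplectic type and exponent four at an involution `z`, and a conjugate one at an
involution `u` inside it.
-/

set_option autoImplicit false

namespace Cfsg.Agent.H58

open Subgroup
open scoped commutatorElement

variable {G : Type*} [Group G]

/-- The properties used of `Q = F*(C(z))`. -/
structure FourData (z : G) (Q : Subgroup G) : Prop where
  mem : z ∈ Q
  sq : z * z = 1
  ne : z ≠ 1
  cent : ∀ q ∈ Q, q * z = z * q
  norm : ∀ c, c * z = z * c → ∀ q ∈ Q, c * q * c⁻¹ ∈ Q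
  comm : ∀ a ∈ Q, ∀ b ∈ Q, ⁅a, b⁆ = 1 ∨ ⁅a, b⁆ = z
  square : ∀ a ∈ Q, a * a = 1 ∨ a * a = z
  center : ∀ a ∈ Q, (∀ b ∈ Q, a * b = b * a) → a * a = 1 → a = 1 ∨ a = z
  self_cent : ∀ c, c * z = z * c → (∀ q ∈ Q, c * q = q * c) → c ∈ Q

variable {z u : G} {Q R : Subgroup G}

/-- An involution of `Q` other than `z` is moved to its product with `z` by some element of `Q`. -/
theorem FourData.exists_swap (hQ : FourData z Q) (hu : u ∈ Q) (hu2 : u * u = 1) (hu1 : u ≠ 1)
    (huz : u ≠ z) : ∃ y ∈ Q, y * u * y⁻¹ = u * z := by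
  by_contra h
  push Not at h
  have hc : ∀ b ∈ Q, u * b = b * u := fun b hb => by
    rcases hQ.comm b hb u hu with h' | h'
    · exact ((commutatorElement_eq_one_iff_mul_comm).mp h').symm
    · refine absurd ?_ (h b hb)
      calc b * u * b⁻¹ = ⁅b, u⁆ * u := by rw [commutatorElement_def]; group
        _ = u * z := by rw [h', hQ.cent u hu]
  rcases hQ.center u hu hc hu2 with h' | h'
  · exact hu1 h'
  · exact huz h'

/-- The involutory elements of `Q ∩ C(u)` central there lie in `{1, z, u, u z}`. -/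
theorem FourData.center_inf (hQ : FourData z Q) (hu : u ∈ Q) (hu2 : u * u = 1) (hu1 : u ≠ 1)
    (huz : u ≠ z) {a : G} (ha : a ∈ Q) (hau : a * u = u * a) (ha2 : a * a = 1)
    (hac : ∀ b ∈ Q, b * u = u * b → a * b = b * a) : a = 1 ∨ a = z ∨ a = u ∨ a = u * z := by
  obtain ⟨y, hy, hyu⟩ := hQ.exists_swap hu hu2 hu1 huz
  have hcentral : ∀ a' ∈ Q, (∀ b ∈ Q, b * u = u * b → a' * b = b * a') → a' * y = y * a' →
      a' * a' = 1 → a' = 1 ∨ a' = z := by
    intro a' ha' hac' hay ha'2
    refine hQ.center a' ha' (fun b hb => ?_) ha'2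
    rcases hQ.comm b hb u hu with h' | h'
    · exact hac' b hb (commutatorElement_eq_one_iff_mul_comm.mp h')
    · have hbu : b * u * b⁻¹ = u * z := by
        calc b * u * b⁻¹ = ⁅b, u⁆ * u := by rw [commutatorElement_def]; group
          _ = u * z := by rw [h', hQ.cent u hu]
      have hd : y⁻¹ * b * u = u * (y⁻¹ * b) := by
        calc y⁻¹ * b * u = y⁻¹ * (b * u * b⁻¹) * b := by group
          _ = y⁻¹ * (y * u * y⁻¹) * b := by rw [hbu, hyu]
          _ = u * (y⁻¹ * b) := by group
      have hcd := hac' _ (mul_mem (inv_mem hy) hb) hd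
      calc a' * b = a' * y * (y⁻¹ * b) := by group
        _ = y * (a' * (y⁻¹ * b)) := by rw [hay]; group
        _ = b * a' := by rw [hcd]; group
  rcases hQ.comm y hy a ha with h' | h'
  · rcases hcentral a ha hac (commutatorElement_eq_one_iff_mul_comm.mp h').symm ha2 with h | h
    · exact Or.inl h
    · exact Or.inr (Or.inl h)
  · have hya : y * a * y⁻¹ = a * z := by
      calc y * a * y⁻¹ = ⁅y, a⁆ * a := by rw [commutatorElement_def]; group
        _ = a * z := by rw [h', hQ.cent a ha]
    have hau2 : a * u * (a * u) = 1 := by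
      calc a * u * (a * u) = a * (u * a) * u := by group
        _ = a * (a * u) * u := by rw [hau]
        _ = (a * a) * (u * u) := by group
        _ = 1 := by rw [ha2, hu2, one_mul]
    have hay : a * u * y = y * (a * u) := by
      refine (mul_inv_eq_iff_eq_mul.mp ?_).symm
      calc y * (a * u) * y⁻¹ = (y * a * y⁻¹) * (y * u * y⁻¹) := by group
        _ = a * (z * u) * z := by rw [hya, hyu]; group
        _ = a * (u * z) * z := by rw [hQ.cent u hu]
        _ = a * u * (z * z) := by group
        _ = a * u := by rw [hQ.sq, mul_one]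
    have hac' : ∀ b ∈ Q, b * u = u * b → a * u * b = b * (a * u) := fun b hb hbu => by
      rw [mul_assoc, ← hbu, ← mul_assoc, hac b hb hbu, mul_assoc]
    have huinv : u⁻¹ = u := inv_eq_of_mul_eq_one_right hu2
    rcases hcentral _ (mul_mem ha hu) hac' hay hau2 with h | h
    · exact Or.inr (Or.inr (Or.inl (by rw [eq_inv_of_mul_eq_one_left h, huinv])))
    · refine Or.inr (Or.inr (Or.inr ?_))
      rw [eq_mul_inv_of_mul_eq h, huinv, hQ.cent u hu]

/-- The main step: `z` lies in the conjugate subgroup. -/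
theorem mem_conjugate_of_fourData (hQ : FourData z Q) (hR : FourData u R) (hu : u ∈ Q) (huz : u ≠ z)
    (hconj : ∀ t, t * z * t⁻¹ = u → ∀ q ∈ Q, t * q * t⁻¹ ∈ R) : z ∈ R := by
  obtain ⟨y, hy, hyu⟩ := hQ.exists_swap hu hR.sq hR.ne huz
  have hyz : y * z * y⁻¹ = z := mul_inv_eq_iff_eq_mul.mpr (hQ.cent y hy)
  have hzu : z * u = u * z := (hQ.cent u hu).symm
  by_contra hzR
  -- no element of R moves z to z u
  have hex : ∀ x ∈ R, x * z * x⁻¹ ≠ z * u := by
    intro x hx h
    have hxu : x * u * x⁻¹ = u := mul_inv_eq_iff_eq_mul.mpr (hR.cent x hx)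
    have h1 : y * x * z * (y * x)⁻¹ = u := by
      calc y * x * z * (y * x)⁻¹ = y * (x * z * x⁻¹) * y⁻¹ := by group
        _ = (y * z * y⁻¹) * (y * u * y⁻¹) := by rw [h]; group
        _ = z * (u * z) := by rw [hyz, hyu]
        _ = (z * z) * u := by rw [← hzu]; group
        _ = u := by rw [hQ.sq, one_mul]
    have h2 := hconj _ h1 u hu
    rw [show y * x * u * (y * x)⁻¹ = y * (x * u * x⁻¹) * y⁻¹ by group, hxu, hyu] at h2
    exact hzR ((mul_mem_cancel_left hR.mem).mp h2)
  have hzinv : z⁻¹ = z := inv_eq_of_mul_eq_one_right hQ.sq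
  -- R and Q meet in the group generated by u
  have hK0 : ∀ a ∈ Q, a ∈ R → a = 1 ∨ a = u := by
    intro a haQ haR
    have ha2 : a * a = 1 := by
      rcases hQ.square a haQ with h | h
      · exact h
      · rcases hR.square a haR with h' | h'
        · exact h'
        · exact absurd (h.symm.trans h') huz.symm
    have hac : ∀ b ∈ Q, b * u = u * b → a * b = b * a := by
      intro b hb hbu
      rcases hQ.comm b hb a haQ with h | h
      · exact (commutatorElement_eq_one_iff_mul_comm.mp h).symm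
      · refine absurd ?_ hzR
        rw [← h, commutatorElement_def]
        exact mul_mem (hR.norm b hbu a haR) (inv_mem haR)
    rcases hQ.center_inf hu hR.sq hR.ne huz haQ (hR.cent a haR) ha2 hac with h | h | h | h
    · exact Or.inl h
    · exact absurd (h ▸ haR) hzR
    · exact Or.inr h
    · exact absurd ((mul_mem_cancel_left hR.mem).mp (h ▸ haR)) hzR
  -- elements of R whose commutator with z lies in the centre commute with z
  have hfix : ∀ x ∈ R, ⁅z, x⁆ = 1 ∨ ⁅z, x⁆ = u → z * x = x * z := by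
    intro x hx h
    rcases h with h | h
    · exact commutatorElement_eq_one_iff_mul_comm.mp h
    · refine absurd ?_ (hex x hx)
      rw [commutatorElement_def, hzinv] at h
      calc x * z * x⁻¹ = z * (z * x * z * x⁻¹) := by
            rw [show z * (z * x * z * x⁻¹) = (z * z) * (x * z * x⁻¹) by group, hQ.sq, one_mul]
        _ = z * u := by rw [h]
  have hdmem : ∀ x ∈ R, ⁅z, x⁆ ∈ R := fun x hx => by
    rw [commutatorElement_def]; exact mul_mem (hR.norm z hzu x hx) (inv_mem hx)
  -- commutators with z commute with z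
  have hd : ∀ x ∈ R, z * ⁅z, x⁆ = ⁅z, x⁆ * z := by
    intro x hx
    refine hfix _ (hdmem x hx) ?_
    have h1 : ⁅z, ⁅z, x⁆⁆ = (⁅z, x⁆ * ⁅z, x⁆)⁻¹ := by
      simp only [commutatorElement_def, mul_inv_rev, inv_inv, hzinv, mul_assoc]
      rw [← mul_assoc z z, hQ.sq, one_mul]
    rw [h1]
    rcases hR.square _ (hdmem x hx) with h | h
    · left; rw [h, inv_one]
    · right; rw [h]; exact inv_eq_of_mul_eq_one_right hR.sq
  -- z centralizes R in both cases, and so lies in it
  suffices hall : ∀ x ∈ R, z * x = x * z from hzR (hR.self_cent z hzu hall)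
  by_cases hs : ∃ s ∈ Q, s * u = u * s ∧ s * s = z
  · obtain ⟨s, hsQ, hsu, hss⟩ := hs
    have hK : ∀ x ∈ R, x * z = z * x → ⁅s, x⁆ = 1 ∨ ⁅s, x⁆ = u := by
      intro x hx hxz
      refine hK0 _ ?_ ?_
      · rw [show ⁅s, x⁆ = s * (x * s⁻¹ * x⁻¹) by rw [commutatorElement_def]; group]
        exact mul_mem hsQ (hQ.norm x hxz _ (inv_mem hsQ))
      · rw [commutatorElement_def]; exact mul_mem (hR.norm s hsu x hx) (inv_mem hx)
    have hcmem : ∀ x ∈ R, ⁅s, x⁆ ∈ R := fun x hx => by
      rw [commutatorElement_def]; exact mul_mem (hR.norm s hsu x hx) (inv_mem hx)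
    -- modulo the centre, commuting twice with s is commuting with z
    have hsq : ∀ x ∈ R, ∃ ε, (ε = 1 ∨ ε = u) ∧ ⁅s, ⁅s, x⁆⁆ = ⁅z, x⁆ * ε := by
      intro x hx
      refine ⟨⁅z, x⁆⁻¹ * ⁅s, ⁅s, x⁆⁆, ?_, (mul_inv_cancel_left _ _).symm⟩
      set v := s * x⁻¹ * s⁻¹ with hv
      have hvR : v ∈ R := hR.norm s hsu _ (inv_mem hx)
      have h1 : ⁅z, x⁆⁻¹ * ⁅s, ⁅s, x⁆⁆ = x * v * x * v := by
        rw [commutatorElement_def, commutatorElement_def, commutatorElement_def, hv, ← hss]; group
      rw [h1, show x * v * x * v = (x * v) * (x * v) by group]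
      exact hR.square _ (mul_mem hx hvR)
    have hucomm : ∀ ε : G, ε = 1 ∨ ε = u → z * ε = ε * z := by
      rintro ε (rfl | rfl)
      · simp
      · exact hzu
    have hR1 : ∀ a ε : G, (a = 1 ∨ a = u) → (ε = 1 ∨ ε = u) → a * ε = 1 ∨ a * ε = u := by
      rintro a ε (rfl | rfl) (rfl | rfl) <;> simp [hR.sq]
    have hinv : ∀ ε : G, ε = 1 ∨ ε = u → ε⁻¹ = ε := by
      rintro ε (rfl | rfl)
      · exact inv_one
      · exact inv_eq_of_mul_eq_one_right hR.sq
    intro x hx
    obtain ⟨ε, hε, he⟩ := hsq x hx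
    obtain ⟨ε', hε', he'⟩ := hsq _ (hcmem x hx)
    have hez : ⁅s, ⁅s, x⁆⁆ * z = z * ⁅s, ⁅s, x⁆⁆ := by
      rw [he, mul_assoc, ← hucomm ε hε, ← mul_assoc, ← hd x hx, mul_assoc]
    have h1 := hK _ (hcmem _ (hcmem x hx)) hez
    have h2 : z * ⁅s, x⁆ = ⁅s, x⁆ * z := by
      refine hfix _ (hcmem x hx) ?_
      rw [eq_mul_inv_of_mul_eq he'.symm]
      exact hR1 _ _ h1 ((hinv ε' hε').symm ▸ hε')
    have h3 := hK _ (hcmem x hx) h2.symm
    refine hfix x hx ?_
    rw [eq_mul_inv_of_mul_eq he.symm]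
    exact hR1 _ _ h3 ((hinv ε hε).symm ▸ hε)
  · push Not at hs
    have hS2 : ∀ a ∈ Q, a * u = u * a → a * a = 1 := fun a ha hau =>
      (hQ.square a ha).resolve_right (hs a ha hau)
    have hS : ∀ a ∈ Q, a * u = u * a → a = 1 ∨ a = z ∨ a = u ∨ a = u * z := by
      intro a ha hau
      refine hQ.center_inf hu hR.sq hR.ne huz ha hau (hS2 a ha hau) fun b hb hbu => ?_
      have hab : a * b * (a * b) = 1 := hS2 _ (mul_mem ha hb) (by
        rw [mul_assoc, hbu, ← mul_assoc, hau, mul_assoc])
      have h := eq_inv_of_mul_eq_one_left hab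
      rwa [mul_inv_rev, inv_eq_of_mul_eq_one_right (hS2 a ha hau),
        inv_eq_of_mul_eq_one_right (hS2 b hb hbu)] at h
    -- the common centralizer of z and u lies in Q
    have hCQ : ∀ d, d * z = z * d → d * u = u * d → d ∈ Q := by
      intro d hdz hdu
      have hdy : d * y * d⁻¹ ∈ Q := hQ.norm d hdz y hy
      have hkey : ∀ d', d' * z = z * d' → d' * u = u * d' → d' * y = y * d' → d' ∈ Q := by
        intro d' h1 h2 h3
        refine hQ.self_cent d' h1 fun q hq => ?_
        have hSd : ∀ a ∈ Q, a * u = u * a → d' * a = a * d' := by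
          intro a ha hau
          rcases hS a ha hau with rfl | rfl | rfl | rfl
          · simp
          · exact h1
          · exact h2
          · rw [← mul_assoc, h2, mul_assoc, h1, mul_assoc]
        rcases hQ.comm q hq u hu with h | h
        · exact hSd q hq (commutatorElement_eq_one_iff_mul_comm.mp h)
        · have hqu : q * u * q⁻¹ = u * z := by
            calc q * u * q⁻¹ = ⁅q, u⁆ * u := by rw [commutatorElement_def]; group
              _ = u * z := by rw [h, hQ.cent u hu]
          have h4 : y⁻¹ * q * u = u * (y⁻¹ * q) := by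
            calc y⁻¹ * q * u = y⁻¹ * (q * u * q⁻¹) * q := by group
              _ = y⁻¹ * (y * u * y⁻¹) * q := by rw [hqu, hyu]
              _ = u * (y⁻¹ * q) := by group
          calc d' * q = d' * y * (y⁻¹ * q) := by group
            _ = y * (d' * (y⁻¹ * q)) := by rw [h3]; group
            _ = y * ((y⁻¹ * q) * d') := by rw [hSd _ (mul_mem (inv_mem hy) hq) h4]
            _ = q * d' := by group
      set w := y⁻¹ * (d * y * d⁻¹) with hw
      have hwQ : w ∈ Q := mul_mem (inv_mem hy) hdy
      have hdyd : d * y * d⁻¹ = y * w := by rw [hw]; group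
      have hwu : w * u = u * w := by
        have h5 : (d * y * d⁻¹) * u * (d * y * d⁻¹)⁻¹ = u * z := by
          calc (d * y * d⁻¹) * u * (d * y * d⁻¹)⁻¹ = d * (y * (d⁻¹ * (u * d)) * y⁻¹) * d⁻¹ := by group
            _ = d * (y * (d⁻¹ * (d * u)) * y⁻¹) * d⁻¹ := by rw [hdu]
            _ = d * (y * u * y⁻¹) * d⁻¹ := by group
            _ = (d * u) * z * d⁻¹ := by rw [hyu]; group
            _ = u * (d * z) * d⁻¹ := by rw [hdu]; group
            _ = u * z := by rw [hdz]; group
        rw [hdyd] at h5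
        calc w * u = y⁻¹ * ((y * w) * u * (y * w)⁻¹) * y * w := by group
          _ = y⁻¹ * (y * u * y⁻¹) * y * w := by rw [h5, hyu]
          _ = u * w := by group
      have hsame : d * (y * y) * d⁻¹ = y * y := by
        rw [mul_inv_eq_iff_eq_mul]
        rcases hQ.square y hy with h | h <;> rw [h]
        · simp
        · exact hdz
      have hbad : y * w * (y * w) = y * y := by
        calc y * w * (y * w) = d * (y * y) * d⁻¹ := by rw [← hdyd]; group
          _ = y * y := hsame
      have hyuu : u * y = y * u * z := by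
        have h6 : y * u = u * z * y := mul_inv_eq_iff_eq_mul.mp hyu
        calc u * y = u * (z * z) * y := by rw [hQ.sq, mul_one]
          _ = (u * z) * z * y := by group
          _ = z * (u * z * y) := by conv_lhs => arg 1; arg 1; rw [← hzu]
                                    group
          _ = z * (y * u) := by rw [h6]
          _ = y * u * z := (hQ.cent _ (mul_mem hy hu)).symm
      rcases hS w hwQ hwu with h | h | h | h
      · rw [h, mul_one] at hdyd
        exact hkey d hdz hdu (mul_inv_eq_iff_eq_mul.mp hdyd)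
      · rw [h] at hdyd
        have h7 : d * u ∈ Q := by
          refine hkey _ ?_ ?_ ?_
          · rw [mul_assoc, ← hzu, ← mul_assoc, hdz, mul_assoc]
          · rw [mul_assoc, ← mul_assoc u d u, ← hdu, mul_assoc]
          · calc d * u * y = d * (u * y) := mul_assoc _ _ _
              _ = d * (y * u * z) := by rw [hyuu]
              _ = (d * y * d⁻¹) * (d * u) * z := by group
              _ = y * (z * (d * u)) * z := by rw [hdyd]; group
              _ = y * ((d * u) * z) * z := by
                  rw [show z * (d * u) = d * u * z by rw [← mul_assoc, ← hdz, mul_assoc, hzu, mul_assoc]]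
              _ = y * (d * u) * (z * z) := by group
              _ = y * (d * u) := by rw [hQ.sq, mul_one]
        exact (mul_mem_cancel_right hu).mp h7
      · exfalso
        rw [h] at hbad
        refine hQ.ne ?_
        have h8 : y * u * (y * u) = y * y * z := by
          calc y * u * (y * u) = y * (u * y) * u := by group
            _ = y * y * (u * z * u) := by rw [hyuu]; group
            _ = y * y * ((u * u) * z) := by rw [mul_assoc u z u, hzu]; group
            _ = y * y * z := by rw [hR.sq, one_mul]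
        exact mul_eq_left.mp (h8.symm.trans hbad)
      · exfalso
        rw [h] at hbad
        refine hQ.ne ?_
        have h8 : y * (u * z) * (y * (u * z)) = y * y * z := by
          calc y * (u * z) * (y * (u * z)) = y * u * (z * y) * u * z := by group
            _ = y * u * (y * z) * u * z := by rw [hQ.cent y hy]
            _ = y * (u * y) * (z * u) * z := by group
            _ = y * y * (u * z) * (u * z) * z := by rw [hyuu, hzu]; group
            _ = y * y * (u * (z * u)) * (z * z) := by group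
            _ = y * y * z := by rw [hzu, ← mul_assoc u u z, hR.sq, hQ.sq, one_mul, mul_one]
        exact mul_eq_left.mp (h8.symm.trans hbad)
    intro x hx
    have hdQ := hCQ _ (hd x hx).symm (hR.cent _ (hdmem x hx))
    exact hfix x hx (hK0 _ hdQ (hdmem x hx))

/-- `X = ⟨Q, R⟩` induces every permutation of the involutions of `⟨z, u⟩`. -/
theorem induced_four_group (hQ : FourData z Q) (hR : FourData u R) (hu : u ∈ Q) (huz : u ≠ z)
    (hz : z ∈ R) : ∀ v ∈ closure ({z, u} : Set G), ∀ w ∈ closure ({z, u} : Set G), v ≠ 1 → w ≠ 1 → v ≠ w →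
      ∃ x ∈ Q ⊔ R, x * z * x⁻¹ = v ∧ x * u * x⁻¹ = w := by
  obtain ⟨y, hy, hyu⟩ := hQ.exists_swap hu hR.sq hR.ne huz
  obtain ⟨y', hy', hy'z⟩ := hR.exists_swap hz hQ.sq hQ.ne huz.symm
  have hyz : y * z * y⁻¹ = z := mul_inv_eq_iff_eq_mul.mpr (hQ.cent y hy)
  have hy'u : y' * u * y'⁻¹ = u := mul_inv_eq_iff_eq_mul.mpr (hR.cent y' hy')
  have hzu : z * u = u * z := (hQ.cent u hu).symm
  have hy_zu : y * (z * u) * y⁻¹ = u := by
    calc y * (z * u) * y⁻¹ = (y * z * y⁻¹) * (y * u * y⁻¹) := by group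
      _ = (z * z) * u := by rw [hyz, hyu, ← hzu]; group
      _ = u := by rw [hQ.sq, one_mul]
  have hy'_zu : y' * (z * u) * y'⁻¹ = z := by
    calc y' * (z * u) * y'⁻¹ = (y' * z * y'⁻¹) * (y' * u * y'⁻¹) := by group
      _ = z * (u * u) := by rw [hy'z, hy'u]; group
      _ = z := by rw [hR.sq, mul_one]
  have hcl : ∀ v ∈ closure ({z, u} : Set G), v ≠ 1 → v = z ∨ v = u ∨ v = z * u := by
    intro v hv hv1
    obtain ⟨m, n, rfl⟩ : ∃ m n : ℤ, z ^ m * u ^ n = v := by
      refine closure_induction ?_ ⟨0, 0, by simp⟩ ?_ ?_ hv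
      · rintro a ha
        rcases ha with rfl | rfl
        · exact ⟨1, 0, by simp⟩
        · exact ⟨0, 1, by simp⟩
      · rintro a b - - ⟨m, n, rfl⟩ ⟨m', n', rfl⟩
        refine ⟨m + m', n + n', ?_⟩
        have h : Commute z u := hzu
        rw [zpow_add, zpow_add, mul_assoc, mul_assoc, ← mul_assoc (u ^ n), ← (h.zpow_zpow m' n).eq,
          mul_assoc]
      · rintro a - ⟨m, n, rfl⟩
        refine ⟨-m, -n, ?_⟩
        rw [mul_inv_rev, ← zpow_neg, ← zpow_neg, (Commute.zpow_zpow (hzu : Commute z u) (-m) (-n)).eq]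
    have hpar : ∀ (a : G), a * a = 1 → ∀ k : ℤ, a ^ k = 1 ∨ a ^ k = a := by
      intro a ha k
      have h2 : a ^ (2 : ℤ) = 1 := by rw [zpow_two]; exact ha
      rw [show k = k % 2 + 2 * (k / 2) by omega, zpow_add, zpow_mul, h2, one_zpow, mul_one]
      rcases Int.emod_two_eq_zero_or_one k with h | h <;> rw [h] <;> simp
    rcases hpar z hQ.sq m with h | h <;> rcases hpar u hR.sq n with h' | h' <;> rw [h, h'] at hv1 ⊢ <;>
      simp at hv1 ⊢
  have hy0 : y ∈ Q ⊔ R := mem_sup_left hy
  have hy'0 : y' ∈ Q ⊔ R := mem_sup_right hy'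
  have hcomp : ∀ (a b c : G), a * b * c * (a * b)⁻¹ = a * (b * c * b⁻¹) * a⁻¹ := fun a b c => by group
  intro v hv w hw hv1 hw1 hvw
  rcases hcl v hv hv1 with hv' | hv' | hv' <;> rcases hcl w hw hw1 with hw' | hw' | hw' <;>
    rw [hv', hw'] at hvw ⊢ <;> first | exact absurd rfl hvw | skip
  · exact ⟨1, one_mem _, by simp, by simp⟩
  · exact ⟨y, hy0, hyz, hyu.trans hzu.symm⟩
  · refine ⟨y * y' * y, mul_mem (mul_mem hy0 hy'0) hy0, ?_, ?_⟩
    · rw [hcomp, hyz, hcomp, hy'z, hy_zu]
    · rw [hcomp, hyu, ← hzu, hcomp, hy'_zu, hyz]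
  · refine ⟨y * y', mul_mem hy0 hy'0, ?_, ?_⟩
    · rw [hcomp, hy'z, hy_zu]
    · rw [hcomp, hy'u, hyu, hzu]
  · refine ⟨y' * y, mul_mem hy'0 hy0, ?_, ?_⟩
    · rw [hcomp, hyz, hy'z]
    · rw [hcomp, hyu, ← hzu, hy'_zu]
  · exact ⟨y', hy'0, hy'z, hy'u⟩

end Cfsg.Agent.H58
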