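import Mathlib
import Cfsg.Prelude.Def_ClassificationK

/-!
Groups of symplectic type of exponent dividing 4: commutators and squares are central involutions,
and the central involution is unique.
-/

set_option autoImplicit false
set_option linter.style.haveILetI false

namespace Cfsg.Agent.H58

open Subgroup
open scoped commutatorElement

universe u

variable {Q : Type u} [Group Q] [Finite Q]

/-- In a cyclic group there is at most one involution. -/
theorem eq_of_sq_eq_one_of_isCyclic {A : Type*} [Group A] [Finite A] [IsCyclic A] {x y : A}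
    (hx : x * x = 1) (hy : y * y = 1) (hx1 : x ≠ 1) (hy1 : y ≠ 1) : x = y := by
  classical
  haveI := Fintype.ofFinite A
  by_contra h
  have hle : ({1, x, y} : Finset A).card ≤ 2 := by
    refine le_trans (Finset.card_le_card ?_) (IsCyclic.card_pow_eq_one_le (α := A) (n := 2) two_pos)
    intro a ha
    simp only [Finset.mem_insert, Finset.mem_singleton] at ha
    rcases ha with rfl | rfl | rfl <;> simp [pow_two, hx, hy]
  have h3 : ({1, x, y} : Finset A).card = 3 :=
    Finset.card_eq_three.mpr ⟨1, x, y, hx1.symm, hy1.symm, h, rfl⟩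
  omega

/-- In a group of symplectic type the central involution is unique. -/
theorem central_involution_unique (hQ : Cfsg.IsOfSymplecticType Q) {x y : Q} (hxc : x ∈ center Q)
    (hyc : y ∈ center Q) (hx : x * x = 1) (hy : y * y = 1) (hx1 : x ≠ 1) (hy1 : y ≠ 1) : x = y := by
  haveI : IsCyclic ↥(center Q) := hQ.2 _ inferInstance inferInstance
  have h := eq_of_sq_eq_one_of_isCyclic (A := ↥(center Q)) (x := ⟨x, hxc⟩) (y := ⟨y, hyc⟩)
    (Subtype.ext hx) (Subtype.ext hy) (fun h => hx1 (congrArg Subtype.val h))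
    (fun h => hy1 (congrArg Subtype.val h))
  exact congrArg Subtype.val h

omit [Finite Q] in
/-- Class two and exponent four: commutators have square one and squares are central. -/
theorem class_two_exponent_four (h4 : ∀ q : Q, q ^ 4 = 1)
    (hc : ∀ a b : Q, ⁅a, b⁆ ∈ center Q) :
    (∀ a b : Q, ⁅a, b⁆ * ⁅a, b⁆ = 1) ∧ ∀ a : Q, a * a ∈ center Q := by
  have key : ∀ a b : Q, ⁅b, a⁆ * ⁅b, a⁆ = 1 := by
    intro a b
    set d := ⁅b, a⁆ with hd
    have hdc : ∀ x : Q, x * d = d * x := fun x => mem_center_iff.mp (hd ▸ hc b a) x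
    have hba : b * a = d * (a * b) := by rw [hd, commutatorElement_def]; group
    have h1 : (a * b) * (a * b) = d * (a * a * (b * b)) := by
      calc (a * b) * (a * b) = a * (b * a) * b := by group
        _ = a * d * (a * b) * b := by rw [hba]; group
        _ = d * a * (a * b) * b := by rw [hdc a]
        _ = d * (a * a * (b * b)) := by group
    have h2 : b * (a * a) = d * d * (a * a * b) := by
      calc b * (a * a) = (b * a) * a := by group
        _ = d * a * (b * a) := by
          conv_lhs => rw [hba]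
          group
        _ = d * (a * d) * (a * b) := by rw [hba]; group
        _ = d * (d * a) * (a * b) := by rw [hdc a]
        _ = d * d * (a * a * b) := by group
    have h3 : b * b * (a * a) = d ^ 4 * (a * a * (b * b)) := by
      calc b * b * (a * a) = b * (b * (a * a)) := by group
        _ = b * (d * d) * (a * a * b) := by rw [h2]; group
        _ = (d * d) * b * (a * a * b) := by
          rw [show b * (d * d) = d * d * b by rw [← mul_assoc, hdc b, mul_assoc, hdc b, ← mul_assoc]]
        _ = (d * d) * (b * (a * a)) * b := by group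
        _ = d ^ 4 * (a * a * (b * b)) := by
          rw [h2]; simp only [pow_succ, pow_zero, one_mul, mul_assoc]
    rw [h4 d, one_mul] at h3
    have h5 : (a * b) ^ 4 = d * d * (a ^ 4 * b ^ 4) := by
      calc (a * b) ^ 4 = ((a * b) * (a * b)) * ((a * b) * (a * b)) := by
            simp only [pow_succ, pow_zero, one_mul, mul_assoc]
        _ = d * ((a * a * (b * b)) * d) * (a * a * (b * b)) := by rw [h1]; group
        _ = d * (d * (a * a * (b * b))) * (a * a * (b * b)) := by rw [hdc]
        _ = d * d * (a * a * (b * b * (a * a)) * (b * b)) := by group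
        _ = d * d * (a * a * (a * a * (b * b)) * (b * b)) := by rw [h3]
        _ = d * d * (a ^ 4 * b ^ 4) := by simp only [pow_succ, pow_zero, one_mul, mul_assoc]
    rw [h4, h4, h4, one_mul, mul_one] at h5
    exact h5.symm
  refine ⟨fun a b => key b a, fun a => mem_center_iff.mpr fun b => ?_⟩
  set d := ⁅b, a⁆ with hd
  have hdc : ∀ x : Q, x * d = d * x := fun x => mem_center_iff.mp (hd ▸ hc b a) x
  have hba : b * a = d * (a * b) := by rw [hd, commutatorElement_def]; group
  have hdd : d * d = 1 := key a b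
  calc b * (a * a) = (b * a) * a := by group
    _ = d * a * (b * a) := by
      conv_lhs => rw [hba]
      group
    _ = d * (a * d) * (a * b) := by rw [hba]; group
    _ = d * (d * a) * (a * b) := by rw [hdc a]
    _ = (d * d) * (a * a * b) := by group
    _ = a * a * b := by rw [hdd, one_mul]

omit [Finite Q] in
/-- A nilpotent group whose derived subgroup is not central has a noncentral element of the derived
subgroup in the second centre. -/
theorem exists_mem_commutator_second_center [Group.IsNilpotent Q]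
    (h : ¬ _root_.commutator Q ≤ center Q) :
    ∃ x ∈ _root_.commutator Q, x ∈ Subgroup.upperCentralSeries Q 2 ∧ x ∉ center Q := by
  classical
  have hex : ∃ n, (⊤ : Subgroup Q).lowerCentralSeries n ≤ center Q := by
    obtain ⟨n, hn⟩ := Subgroup.nilpotent_iff_lowerCentralSeries.mp ‹Group.IsNilpotent Q›
    exact ⟨n, hn ▸ bot_le⟩
  obtain ⟨n, hle, hmin⟩ : ∃ n, (⊤ : Subgroup Q).lowerCentralSeries n ≤ center Q ∧
      ∀ m < n, ¬ (⊤ : Subgroup Q).lowerCentralSeries m ≤ center Q :=
    ⟨Nat.find hex, Nat.find_spec hex, fun m hm => Nat.find_min hex hm⟩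
  match n, hle, hmin with
  | 0, hle, _ => exact absurd ((Subgroup.lowerCentralSeries_zero (S := (⊤ : Subgroup Q))) ▸ hle |> le_trans le_top) h
  | 1, hle, _ => exact absurd hle h
  | k + 2, hle, hmin =>
    obtain ⟨x, hx, hxz⟩ := SetLike.not_le_iff_exists.mp (hmin (k + 1) (Nat.lt_succ_self _))
    refine ⟨x, ?_, Subgroup.mem_upperCentralSeries_succ_iff.mpr fun y => ?_, hxz⟩
    · exact (⊤ : Subgroup Q).lowerCentralSeries_antitone (Nat.le_add_left 1 k) hx
    · rw [Subgroup.upperCentralSeries_one]
      exact hle (commutator_mem_commutator hx (mem_top y))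

/-- A group of symplectic type of exponent dividing 4 has class at most two. -/
theorem commutator_mem_center_of_symplectic : ∀ (n : ℕ) (Q : Type u) [Group Q] [Finite Q],
    Nat.card Q = n → Cfsg.IsOfSymplecticType Q → (∀ q : Q, q ^ 4 = 1) →
      ∀ a b : Q, ⁅a, b⁆ ∈ center Q := by
  intro n
  induction n using Nat.strong_induction_on with
  | _ n ih =>
  intro Q _ _ hn hQ h4
  by_contra hne
  have hnle : ¬ _root_.commutator Q ≤ center Q := fun h =>
    hne fun a b => h (commutator_mem_commutator (mem_top a) (mem_top b))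
  haveI : Fact (Nat.Prime 2) := ⟨Nat.prime_two⟩
  haveI : Group.IsNilpotent Q := hQ.1.isNilpotent
  set Z2 := Subgroup.upperCentralSeries Q 2 with hZ2
  set W : Subgroup Q := _root_.commutator Q ⊓ Z2 with hW
  haveI hWchar : W.Characteristic := characteristic_iff_comap_eq.mpr fun φ => by
    rw [hW, Subgroup.comap_inf,
      characteristic_iff_comap_eq.mp (inferInstance : (_root_.commutator Q).Characteristic) φ,
      characteristic_iff_comap_eq.mp (inferInstance : Z2.Characteristic) φ]
  -- the second centre centralizes the derived subgroup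
  have hZ2c : ∀ d ∈ _root_.commutator Q, ∀ w ∈ Z2, d * w = w * d := by
    have h1 : ⁅⁅(⊤ : Subgroup Q), Z2⁆, (⊤ : Subgroup Q)⁆ = ⊥ := by
      rw [commutator_eq_bot_iff_le_centralizer]
      intro c hc
      refine mem_centralizer_iff.mpr fun g _ => mem_center_iff.mp ?_ g
      rw [commutator_comm] at hc
      exact ((Subgroup.commutator_upperCentralSeries_top_le Q 1).trans
        (Subgroup.upperCentralSeries_one (G := Q)).le) hc
    have h2 : ⁅⁅Z2, (⊤ : Subgroup Q)⁆, (⊤ : Subgroup Q)⁆ = ⊥ := by rwa [commutator_comm Z2]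
    have h3 := commutator_commutator_eq_bot_of_rotate (H₁ := (⊤ : Subgroup Q)) (H₂ := ⊤) (H₃ := Z2) h1 h2
    intro d hd w hw
    exact (mem_centralizer_iff.mp (commutator_eq_bot_iff_le_centralizer.mp h3 hd) w hw).symm
  have hWa : IsMulCommutative ↥W :=
    ⟨⟨fun a b => Subtype.ext (hZ2c a a.2.1 b b.2.2)⟩⟩
  haveI : IsCyclic ↥W := hQ.2 W hWchar hWa
  obtain ⟨g, hg⟩ := IsCyclic.exists_generator (α := ↥W)
  have hgen : ∀ w ∈ W, ∃ k : ℤ, w = (g : Q) ^ k := fun w hw => by
    obtain ⟨k, hk⟩ := mem_zpowers_iff.mp (hg ⟨w, hw⟩)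
    exact ⟨k, by rw [← Subgroup.coe_zpow, hk]⟩
  set x : Q := (g : Q) with hxdef
  have hxW : x ∈ W := g.2
  have hxz : x ∉ center Q := by
    intro hx
    obtain ⟨y, hy1, hy2, hy3⟩ := exists_mem_commutator_second_center hnle
    obtain ⟨k, rfl⟩ := hgen y ⟨hy1, hy2⟩
    exact hy3 (zpow_mem hx k)
  -- W has exactly four elements
  have hx4 : x ^ 4 = 1 := h4 x
  have hcases : ∀ w ∈ W, w = 1 ∨ w = x ∨ w = x * x ∨ w = x⁻¹ := by
    intro w hw
    obtain ⟨k, rfl⟩ := hgen w hw
    have hk : x ^ k = x ^ (k % 4) := by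
      have h4' : x ^ (4 : ℤ) = 1 := by rw [← hx4, ← zpow_natCast]; rfl
      conv_lhs => rw [show k = k % 4 + 4 * (k / 4) by omega, zpow_add, zpow_mul, h4', one_zpow, mul_one]
    have h03 : k % 4 = 0 ∨ k % 4 = 1 ∨ k % 4 = 2 ∨ k % 4 = 3 := by omega
    rcases h03 with h | h | h | h <;> rw [hk, h]
    · left; simp
    · right; left; simp
    · right; right; left; exact zpow_two x
    · right; right; right
      refine eq_inv_of_mul_eq_one_left ?_
      rw [show (3 : ℤ) = ((3 : ℕ) : ℤ) from rfl, zpow_natCast, ← pow_succ, hx4]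
  have hconjW : ∀ q : Q, q * x * q⁻¹ ∈ W := fun q =>
    (inferInstance : W.Normal).conj_mem x hxW q
  have hxx : x * x ≠ 1 := by
    intro hx2
    refine hxz (mem_center_iff.mpr fun q => ?_)
    have hinv : x⁻¹ = x := inv_eq_of_mul_eq_one_right hx2
    rcases hcases _ (hconjW q) with h | h | h | h
    · rw [conj_eq_one_iff] at h; rw [h, mul_one, one_mul]
    · exact mul_inv_eq_iff_eq_mul.mp h
    · rw [hx2, conj_eq_one_iff] at h; rw [h, mul_one, one_mul]
    · rw [hinv] at h; exact mul_inv_eq_iff_eq_mul.mp h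
  have hconj : ∀ q : Q, q * x * q⁻¹ = x ∨ q * x * q⁻¹ = x⁻¹ := by
    intro q
    rcases hcases _ (hconjW q) with h | h | h | h
    · rw [conj_eq_one_iff] at h; exact absurd (h ▸ mul_one (1 : Q)) hxx
    · exact Or.inl h
    · exfalso
      have hsq : q * (x * x) * q⁻¹ = 1 := by
        calc q * (x * x) * q⁻¹ = (q * x * q⁻¹) * (q * x * q⁻¹) := by group
          _ = x ^ 4 := by rw [h]; simp only [pow_succ, pow_zero, one_mul, mul_assoc]
          _ = 1 := hx4
      exact hxx (conj_eq_one_iff.mp hsq)
    · exact Or.inr h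
  have hxxc : x * x ∈ center Q := mem_center_iff.mpr fun q => by
    have h2 : x⁻¹ * x⁻¹ = x * x := by
      calc x⁻¹ * x⁻¹ = x⁻¹ * x⁻¹ * x ^ 4 := by rw [hx4, mul_one]
        _ = x * x := by simp [pow_succ, mul_assoc]
    rcases hconj q with h | h <;> refine mul_inv_eq_iff_eq_mul.mp ?_ <;>
      calc q * (x * x) * q⁻¹ = (q * x * q⁻¹) * (q * x * q⁻¹) := by group
        _ = x * x := by rw [h] <;> first | rfl | exact h2
  set C : Subgroup Q := centralizer (W : Set Q) with hC
  haveI hCchar : C.Characteristic := by rw [hC]; infer_instance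
  have hmemC : ∀ c : Q, c ∈ C ↔ c * x * c⁻¹ = x := by
    intro c
    refine ⟨fun hc => ?_, fun hc => mem_centralizer_iff.mpr fun w hw => ?_⟩
    · rw [mul_inv_eq_iff_eq_mul]; exact (mem_centralizer_iff.mp hc x hxW).symm
    · obtain ⟨k, rfl⟩ := hgen w hw
      exact (Commute.zpow_left (mul_inv_eq_iff_eq_mul.mp hc).symm k)
  have hxC : x ∈ C := (hmemC x).mpr (by group)
  have hindex : ∀ q q' : Q, q ∉ C → q' ∉ C → q⁻¹ * q' ∈ C := by
    intro q q' hq hq'
    rw [hmemC] at hq hq' ⊢
    have h1 := (hconj q).resolve_left hq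
    have h2 := (hconj q').resolve_left hq'
    calc q⁻¹ * q' * x * (q⁻¹ * q')⁻¹ = q⁻¹ * (q' * x * q'⁻¹) * q := by group
      _ = q⁻¹ * (q * x * q⁻¹) * q := by rw [h1, h2]
      _ = x := by group
  -- C is of symplectic type and smaller
  have hCs : Cfsg.IsOfSymplecticType ↥C := by
    refine ⟨hQ.1.to_subgroup C, fun A hA hAa => ?_⟩
    haveI := hA
    let e := A.equivMapOfInjective C.subtype C.subtype_injective
    haveI : IsCyclic ↥(A.map C.subtype) := hQ.2 _ inferInstance
      ⟨⟨fun a b => e.symm.injective (by rw [map_mul, map_mul]; exact hAa.is_comm.comm _ _)⟩⟩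
    exact isCyclic_of_surjective e.symm.toMonoidHom e.symm.surjective
  have hC4 : ∀ c : ↥C, c ^ 4 = 1 := fun c => Subtype.ext (by simpa using h4 (c : Q))
  have hlt : Nat.card ↥C < n := by
    rw [← hn]
    refine lt_of_le_of_ne (card_le_card_group C) fun h => hxz ?_
    have hCtop : C = ⊤ := eq_top_of_card_eq C h
    exact mem_center_iff.mpr fun q => mul_inv_eq_iff_eq_mul.mp ((hmemC q).mp (hCtop ▸ mem_top q))
  have hCc := ih _ hlt ↥C rfl hCs hC4
  obtain ⟨hCsq, hCsq'⟩ := class_two_exponent_four hC4 hCc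
  have hxcC : (⟨x, hxC⟩ : ↥C) ∈ center ↥C := mem_center_iff.mpr fun c =>
    Subtype.ext (mul_inv_eq_iff_eq_mul.mp ((hmemC c).mp c.2))
  have huniq : ∀ w : ↥C, w ∈ center ↥C → w * w = 1 → (w : Q) = 1 ∨ (w : Q) = x * x := by
    intro w hw hw2
    refine or_iff_not_imp_left.mpr fun hw1 => ?_
    have h := central_involution_unique hCs hw (mul_mem hxcC hxcC) hw2
      (Subtype.ext (by
        show x * x * (x * x) = 1
        rw [← hx4]; simp only [pow_succ, pow_zero, one_mul, mul_assoc]))
      (fun h => hw1 (by rw [h]; rfl)) (fun h => hxx (congrArg Subtype.val h))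
    rw [h]; rfl
  -- the subgroup of order two generated by the square of x
  set Z0 : Subgroup Q := zpowers (x * x) with hZ0
  have hZ0c : Z0 ≤ center Q := zpowers_le.mpr hxxc
  haveI : Z0.Normal := ⟨fun a ha q => by rwa [mem_center_iff.mp (hZ0c ha) q, mul_inv_cancel_right]⟩
  have hCcomm : ∀ a ∈ C, ∀ b ∈ C, ⁅a, b⁆ ∈ Z0 := by
    intro a ha b hb
    rcases huniq ⁅⟨a, ha⟩, ⟨b, hb⟩⁆ (hCc _ _) (hCsq _ _) with h | h
    · rw [show ⁅a, b⁆ = 1 from h]; exact one_mem _
    · rw [show ⁅a, b⁆ = x * x from h]; exact mem_zpowers _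
  have hCsquare : ∀ a ∈ C, a * a ∈ Z0 := by
    intro a ha
    rcases huniq (⟨a, ha⟩ * ⟨a, ha⟩) (hCsq' _) (Subtype.ext (by
      show a * a * (a * a) = 1
      rw [← h4 a]; simp only [pow_succ, pow_zero, one_mul, mul_assoc])) with h | h
    · rw [show a * a = 1 from h]; exact one_mem _
    · rw [show a * a = x * x from h]; exact mem_zpowers _
  haveI : C.Normal := inferInstance
  -- an element outside C fixes C modulo Z0
  have hmix : ∀ q, q ∉ C → ∀ c ∈ C, ⁅q, c⁆ ∈ Z0 := by
    intro q hq c hc
    set e := ⁅q, c⁆ with he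
    have heC : e ∈ C := by
      rw [he, commutatorElement_def]
      exact mul_mem ((inferInstance : C.Normal).conj_mem c hc q) (inv_mem hc)
    have hq2 : q * q ∈ C := by
      by_contra h
      have := hindex q (q * q) hq h
      rw [inv_mul_cancel_left] at this
      exact hq this
    have hqe : ⁅q, e⁆ ∈ Z0 := by
      have h1 : ⁅q, e⁆ = ⁅q * q, c⁆ * (e * e)⁻¹ := by
        simp only [he, commutatorElement_def]; group
      rw [h1]
      exact mul_mem (hCcomm _ hq2 c hc) (inv_mem (hCsquare e heC))
    have hec : e ∈ Z2 := by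
      rw [hZ2, Subgroup.mem_upperCentralSeries_succ_iff]
      intro y
      rw [Subgroup.upperCentralSeries_one]
      refine hZ0c ?_
      by_cases hy : y ∈ C
      · exact hCcomm e heC y hy
      · have hd : q⁻¹ * y ∈ C := hindex q y hq hy
        have : ⁅e, y⁆ = ⁅e, q⁆ * (q * ⁅e, q⁻¹ * y⁆ * q⁻¹) := by
          simp only [commutatorElement_def]; group
        rw [this]
        refine mul_mem ?_ ((inferInstance : Z0.Normal).conj_mem _ (hCcomm e heC _ hd) q)
        rw [← commutatorElement_inv]; exact inv_mem hqe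
    have heW : e ∈ W := ⟨commutator_mem_commutator (mem_top q) (mem_top c), hec⟩
    have hce : c * e = e * c := (mem_centralizer_iff.mp hc e heW).symm
    have hee : e * e = 1 := by
      have h1 : q * (c * c) * q⁻¹ = c * c := by
        rw [mul_inv_eq_iff_eq_mul]; exact mem_center_iff.mp (hZ0c (hCsquare c hc)) q
      have h2 : q * c * q⁻¹ = e * c := by rw [he, commutatorElement_def]; group
      have h3 : (e * e) * (c * c) = c * c := by
        calc (e * e) * (c * c) = e * (e * c) * c := by group
          _ = e * (c * e) * c := by rw [hce]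
          _ = (e * c) * (e * c) := by group
          _ = (q * c * q⁻¹) * (q * c * q⁻¹) := by rw [h2]
          _ = q * (c * c) * q⁻¹ := by group
          _ = c * c := h1
      exact mul_eq_right.mp h3
    rcases hcases e heW with h | h | h | h
    · rw [h]; exact one_mem _
    · rw [h] at hee; exact absurd hee hxx
    · rw [h]; exact mem_zpowers _
    · rw [h, ← mul_inv_rev, inv_eq_one] at hee; exact absurd hee hxx
  refine hne fun a b => hZ0c ?_
  by_cases ha : a ∈ C
  · by_cases hb : b ∈ C
    · exact hCcomm a ha b hb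
    · rw [← commutatorElement_inv]; exact inv_mem (hmix b hb a ha)
  · by_cases hb : b ∈ C
    · exact hmix a ha b hb
    · have : ⁅a, b⁆ = a * ⁅a, a⁻¹ * b⁆ * a⁻¹ := by simp only [commutatorElement_def]; group
      rw [this]
      exact (inferInstance : Z0.Normal).conj_mem _ (hmix a ha _ (hindex a b ha hb)) a

/-- In a group of symplectic type of exponent dividing 4, commutators and squares lie in the
group of order two generated by any central involution. -/
theorem symplectic_four_spec (hQ : Cfsg.IsOfSymplecticType Q) (h4 : ∀ q : Q, q ^ 4 = 1) {z : Q}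
    (hzc : z ∈ center Q) (hz : z * z = 1) (hz1 : z ≠ 1) :
    (∀ a b : Q, ⁅a, b⁆ = 1 ∨ ⁅a, b⁆ = z) ∧ (∀ a : Q, a * a = 1 ∨ a * a = z) ∧
      ∀ a ∈ center Q, a * a = 1 → a = 1 ∨ a = z := by
  have h0 : ∀ a ∈ center Q, a * a = 1 → a = 1 ∨ a = z := fun a ha ha2 =>
    or_iff_not_imp_left.mpr fun ha1 => central_involution_unique hQ ha hzc ha2 hz ha1 hz1
  have hc := commutator_mem_center_of_symplectic _ Q rfl hQ h4
  obtain ⟨hsq, hsq'⟩ := class_two_exponent_four h4 hc
  refine ⟨fun a b => h0 _ (hc a b) (hsq a b), fun a => h0 _ (hsq' a) ?_, h0⟩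
  rw [← h4 a]; simp only [pow_succ, pow_zero, one_mul, mul_assoc]

end Cfsg.Agent.H58
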