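import Cfsg.Agent.H58.TI
import Cfsg.Agent.H58.FixedPoints

/-!
Abelian trivial intersection `2`-subgroups.
-/

set_option autoImplicit false

namespace Cfsg.Agent.H58

variable {G : Type*} [Group G] [Finite G]

/-- An element of order greater than two of an abelian TI `2`-group `A`, normalizing a conjugate
`B ≠ A`, forces `A` and `B` to commute. -/
theorem commute_of_abelian_ti {A : Subgroup G} (hA2 : IsPGroup 2 ↥A) (hAa : IsMulCommutative ↥A)
    (hti : ∀ h : G,
      A.map (MulAut.conj h).toMonoidHom = A ∨ A.map (MulAut.conj h).toMonoidHom ⊓ A = ⊥)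
    (g : G) (hg : A.map (MulAut.conj g).toMonoidHom ≠ A) {a : G} (ha : a ∈ A)
    (haN : a ∈ Subgroup.normalizer ((A.map (MulAut.conj g).toMonoidHom : Subgroup G) : Set G))
    (ha2 : a * a ≠ 1) :
    ∀ x ∈ A, ∀ y ∈ A.map (MulAut.conj g).toMonoidHom, x * y = y * x := by
  set B := A.map (MulAut.conj g).toMonoidHom with hB
  have hAB : A ⊓ B = ⊥ := by rw [inf_comm]; exact (hti g).resolve_left hg
  haveI : IsMulCommutative ↥B := ⟨⟨by
    rintro ⟨_, x, hx, rfl⟩ ⟨_, y, hy, rfl⟩
    refine Subtype.ext ?_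
    show (MulAut.conj g).toMonoidHom x * (MulAut.conj g).toMonoidHom y = _ * _
    rw [← map_mul, ← map_mul]
    exact congrArg _ (congrArg Subtype.val (hAa.1.1 ⟨x, hx⟩ ⟨y, hy⟩))⟩⟩
  have hB2 : IsPGroup 2 ↥B := hA2.map _
  have hBti : ∀ h : G, B.map (MulAut.conj h).toMonoidHom = B ∨
      B.map (MulAut.conj h).toMonoidHom ⊓ B = ⊥ := by
    intro h
    have e : B.map (MulAut.conj h).toMonoidHom =
        (A.map (MulAut.conj (g⁻¹ * h * g)).toMonoidHom).map (MulAut.conj g).toMonoidHom := by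
      rw [hB, Subgroup.map_map, Subgroup.map_map]
      congr 1
      ext x
      simp [mul_assoc]
    rw [e]
    rcases hti (g⁻¹ * h * g) with h' | h'
    · exact Or.inl (by rw [h'])
    · refine Or.inr ?_
      rw [hB, ← Subgroup.map_inf _ _ _ (MulAut.conj g).injective, h', Subgroup.map_bot]
  let t : MulAut ↥B :=
    { toFun := fun b => ⟨a * b.1 * a⁻¹, (Subgroup.mem_normalizer_iff.mp haN _).mp b.2⟩
      invFun := fun b => ⟨a⁻¹ * b.1 * a,
        (Subgroup.mem_normalizer_iff.mp haN _).mpr (by simp [mul_assoc])⟩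
      left_inv := fun b => by simp [mul_assoc]
      right_inv := fun b => by simp [mul_assoc]
      map_mul' := fun x y => by ext; simp [mul_assoc] }
  have ht : ∀ n : ℕ, ∀ b : ↥B, ((t ^ n) b).1 = a ^ n * b.1 * (a ^ n)⁻¹ := by
    intro n
    induction n with
    | zero => simp
    | succ n ih =>
      intro b
      rw [pow_succ']
      show a * ((t ^ n) b).1 * a⁻¹ = _
      rw [ih b, pow_succ']
      group
  have hord : ∃ k : ℕ, orderOf t = 2 ^ k := by
    obtain ⟨k, hk⟩ := hA2 ⟨a, ha⟩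
    have hak : a ^ 2 ^ k = 1 := congrArg Subtype.val hk
    have : t ^ 2 ^ k = 1 := MulEquiv.ext fun b => Subtype.ext (by rw [ht, hak]; simp)
    obtain ⟨j, _, hj⟩ := (Nat.dvd_prime_pow Nat.prime_two).mp (orderOf_dvd_of_pow_eq_one this)
    exact ⟨j, hj⟩
  have hcomm : ∀ b ∈ B, a * b = b * a := by
    letI : CommGroup ↥B := { mul_comm := fun x y => IsMulCommutative.is_comm.comm x y }
    have hfix := two_aut_eq_one_of_fixed_sq (A := ↥B) hB2 t hord fun b hb => by
      have h1 : a * a * b.1 * (a * a)⁻¹ = b.1 := by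
        have := congrArg Subtype.val hb
        simpa [t, mul_assoc] using this
      have hbN : b.1 ∈ Subgroup.normalizer (A : Set G) := by
        refine mem_normalizer_of_ti (hti b.1) (A.mul_mem ha ha) ha2 ?_
        rw [mul_inv_eq_iff_eq_mul] at h1 ⊢
        exact h1.symm
      refine Subtype.ext ?_
      show a * b.1 * a⁻¹ = b.1
      rw [mul_inv_eq_iff_eq_mul]
      exact commute_of_normalize_each_other hAB ha b.2 hbN haN
    intro b hb
    have := congrArg Subtype.val (hfix ⟨b, hb⟩)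
    exact mul_inv_eq_iff_eq_mul.mp this
  have ha1 : a ≠ 1 := by rintro rfl; exact ha2 (one_mul 1)
  have hBN : B ≤ Subgroup.normalizer (A : Set G) := fun b hb =>
    mem_normalizer_of_ti (hti b) ha ha1 (mul_inv_eq_iff_eq_mul.mpr (hcomm b hb).symm)
  haveI : Fact (Nat.Prime 2) := ⟨Nat.prime_two⟩
  exact commute_of_ti_of_normalize hA2 hB2 hBti (card_map_conj A g).ge hAB hBN

end Cfsg.Agent.H58
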