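import Cfsg.Agent.H58.TI

/-!
`family_commute` for a `2`-subgroup of an ambient group.
-/

set_option autoImplicit false

namespace Cfsg.Agent.H58

variable {G : Type*} [Group G] [Finite G]

/-- A family of TI subgroups, not of exponent two and of equal order, inside a `2`-subgroup `P`
and invariant under `P`, commutes pairwise. -/
theorem family_commute_in {P : Subgroup G} (hP : IsPGroup 2 ↥P) (Δ : Set (Subgroup G))
    (hle : ∀ R ∈ Δ, R ≤ P)
    (hinv : ∀ s ∈ P, ∀ R ∈ Δ, R.map (MulAut.conj s).toMonoidHom ∈ Δ)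
    (hsq : ∀ R ∈ Δ, ∃ r ∈ R, r * r ≠ 1)
    (hord : ∀ R ∈ Δ, ∀ T ∈ Δ, Nat.card ↥R = Nat.card ↥T)
    (hti : ∀ R ∈ Δ, ∀ T ∈ Δ, R = T ∨ R ⊓ T = ⊥) :
    ∀ R ∈ Δ, ∀ T ∈ Δ, R ≠ T → ∀ r ∈ R, ∀ t ∈ T, r * t = t * r := by
  let Δ' : Set (Subgroup ↥P) := {R | R.map P.subtype ∈ Δ}
  have hmap : ∀ R ∈ Δ, (R.subgroupOf P).map P.subtype = R := fun R hR =>
    Subgroup.map_subgroupOf_eq_of_le (hle R hR)
  have hmem : ∀ R ∈ Δ, R.subgroupOf P ∈ Δ' := fun R hR => by
    show (R.subgroupOf P).map P.subtype ∈ Δ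
    rwa [hmap R hR]
  have hcard : ∀ R : Subgroup ↥P, Nat.card ↥(R.map P.subtype) = Nat.card ↥R := fun R =>
    (Nat.card_congr (R.equivMapOfInjective _ P.subtype_injective).toEquiv).symm
  have key := family_commute hP Δ' ?_ ?_ ?_ ?_
  · intro R hR T hT hne r hr t ht
    have h := key _ (hmem R hR) _ (hmem T hT)
      (fun h => hne (by rw [← hmap R hR, ← hmap T hT, h])) ⟨r, hle R hR hr⟩ hr ⟨t, hle T hT ht⟩ ht
    exact congrArg Subtype.val h
  · intro s R hR
    show (R.map (MulAut.conj s).toMonoidHom).map P.subtype ∈ Δ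
    rw [Subgroup.map_map, show P.subtype.comp (MulAut.conj s).toMonoidHom =
      (MulAut.conj (s : G)).toMonoidHom.comp P.subtype by ext x; simp, ← Subgroup.map_map]
    exact hinv _ s.2 _ hR
  · intro R hR
    obtain ⟨_, ⟨r, hr, rfl⟩, hr2⟩ := hsq _ hR
    exact ⟨r, hr, fun h => hr2 (by
      show ((r : ↥P) : G) * (r : ↥P) = 1
      rw [← Subgroup.coe_mul, h, Subgroup.coe_one])⟩
  · intro R hR T hT
    rw [← hcard R, ← hcard T]
    exact hord _ hR _ hT
  · intro R hR T hT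
    rcases hti _ hR _ hT with h | h
    · exact Or.inl (Subgroup.map_injective P.subtype_injective h)
    · refine Or.inr (Subgroup.map_injective P.subtype_injective ?_)
      rw [Subgroup.map_inf _ _ _ P.subtype_injective, h, Subgroup.map_bot]

end Cfsg.Agent.H58
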